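import Mathlib

set_option autoImplicit false

namespace Cfsg.Agent.Lib.H1Orth

def allB : ℕ → (ℕ → Bool) → Bool
  | 0, _ => true
  | m + 1, p => p m && allB m p

def anyB : ℕ → (ℕ → Bool) → Bool
  | 0, _ => false
  | m + 1, p => p m || anyB m p

def forceNat {α : Type} (n : ℕ) (k : ℕ → α) : α :=
  match n with
  | 0 => k 0
  | m + 1 => k (m + 1)

def tb (m q : ℕ) : Bool := Nat.beq (Nat.land 1 (Nat.shiftRight m q)) 1

section Codes
-- `n` the dimension, `M = 2 ^ n`, `QT` the table of the quadratic form.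
variable (n M QT : ℕ)

def Qb (c : ℕ) : Bool := tb QT (Nat.mod c M)
def Bb (a x : ℕ) : Bool := xor (xor (Qb M QT (Nat.xor a x)) (Qb M QT a)) (Qb M QT x)
def rc (a x : ℕ) : ℕ := cond (Qb M QT a && Bb M QT a x) (Nat.xor x a) x
def sc (a b x : ℕ) : ℕ := cond (Qb M QT a && Qb M QT b && Bb M QT a b) (rc M QT a (rc M QT b x)) x

abbrev Word := List (ℕ × ℕ)

def Tc : Word → ℕ → ℕ
  | [], x => x
  | p :: w, x => sc M QT p.1 p.2 (Tc w x)

def relAct (x : Word) : List Word → ℕ → ℕ
  | [], c => c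
  | y :: ys, c => Tc M QT x (Tc M QT y (relAct x ys c))

def evalC (x : Word) : List Word → ℕ → ℕ
  | [], _ => 0
  | y :: ys, w => Nat.xor w (Tc M QT x (Tc M QT y (evalC x ys w)))

def expand (known : List Word) (spec : List ℕ) : Word :=
  (spec.map (fun i => known.getD i [])).flatten

def chkRel (x : Word) (rel : List Word) : Bool :=
  allB M (fun c => Nat.beq (relAct M QT x rel c) c)

def chkElim (x : Word) (rels : List (List Word)) : Bool :=
  allB M (fun w => Nat.beq w 0 || rels.any (fun rel => !Nat.beq (Nat.mod (evalC M QT x rel w) M) 0))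

def chkStep (known : List Word) (x : Word) (rels : List (List (List ℕ))) : Bool :=
  (rels.map (fun rel => rel.map (expand known))).all (chkRel M QT x) &&
    chkElim M QT x (rels.map (fun rel => rel.map (expand known)))

def bfsIns (q : ℕ) (kn : ℕ) (acc : List ℕ) : ℕ × List ℕ :=
  cond (tb kn q) (kn, acc) (forceNat (Nat.lor kn (Nat.shiftLeft 1 q)) fun kn' => (kn', q :: acc))

def bfsOne : List (ℕ → ℕ) → ℕ → ℕ × List ℕ → ℕ × List ℕ
  | [], _, st => st
  | g :: gs, p, (kn, acc) => forceNat (g p) fun q => bfsOne gs p (bfsIns q kn acc)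

def bfsSweep (gs : List (ℕ → ℕ)) : List ℕ → ℕ × List ℕ → ℕ × List ℕ
  | [], st => st
  | p :: ps, (kn, acc) => bfsSweep gs ps (bfsOne gs p (kn, acc))

def bfs (gs : List (ℕ → ℕ)) : ℕ → List ℕ → ℕ → ℕ
  | 0, _, kn => kn
  | m + 1, fr, kn =>
    match bfsSweep gs fr (kn, []) with
    | (kn', fr') => bfs gs m fr' kn'

def pc (a b : ℕ) : ℕ := Nat.add (Nat.mul (Nat.mod a M) M) (Nat.mod b M)

/-- table of the action of a word -/
def mkTab (w : Word) : ℕ → ℕ
  | 0 => 0
  | x + 1 => Nat.lor (mkTab w x) (Nat.shiftLeft (Tc M QT w x) (Nat.mul n x))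

def lookup (tab x : ℕ) : ℕ := Nat.mod (Nat.shiftRight tab (Nat.mul n (Nat.mod x M))) M

def chkTab (w : Word) (tab : ℕ) : Bool :=
  allB M (fun x => Nat.beq (lookup n M tab x) (Nat.mod (Tc M QT w x) M))

def gstepT (tab c : ℕ) : ℕ :=
  pc M (lookup n M tab (Nat.div c M)) (lookup n M tab (Nat.mod c M))

def mkTabs : List Word → List ℕ
  | [] => []
  | w :: ws => forceNat (mkTab n M QT w M) fun t => t :: mkTabs ws

def chkFinal (known : List Word) (a₀ b₀ fuel : ℕ) : Bool :=
  known.any (fun w => w == [(a₀, b₀)]) &&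
    known.all (fun w => chkTab n M QT w (mkTab n M QT w M)) &&
    forceNat (bfs ((mkTabs n M QT known).map (gstepT n M)) fuel [pc M a₀ b₀] (Nat.shiftLeft 1 (pc M a₀ b₀))) fun kn =>
     allB M (fun a => !Qb M QT a || allB M (fun b => !Qb M QT b || !Bb M QT a b || tb kn (pc M a b)))

def chkChain (a₀ b₀ fuel : ℕ) : List Word → List (Word × List (List (List ℕ))) → Bool
  | known, [] => chkFinal n M QT known a₀ b₀ fuel
  | known, st :: rest => chkStep M QT known st.1 st.2 && chkChain a₀ b₀ fuel (known ++ [st.1]) rest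

def chkConn : Bool :=
  allB M (fun a => !Qb M QT a || allB M (fun b => !Qb M QT b ||
    anyB M (fun c => Qb M QT c && Bb M QT a c && Bb M QT c b)))

def chkFpf (t : Word) : Bool :=
  allB M (fun c => Nat.beq c 0 || !Nat.beq (Nat.mod (Tc M QT t c) M) c)

def master (t₀ : Word) (steps : List (Word × List (List (List ℕ)))) (a₀ b₀ fuel : ℕ) : Bool :=
  chkFpf M QT t₀ && Qb M QT a₀ && chkConn M QT && chkChain n M QT a₀ b₀ fuel [t₀] steps

end Codes

end Cfsg.Agent.Lib.H1Orth
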