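import Mathlib
import Cfsg.Agent.Lib.Classical.Orth.CartanDieudonne
import Cfsg.Agent.Lib.H1Orth.Codes

/-!
Soundness of the finite computations of `Codes`: first cohomology of `Ω(Q)` on the natural module
over `ZMod 2` vanishes as soon as the check `master` returns `true` and reflections generate `O(Q)`.
-/

set_option autoImplicit false
set_option linter.unusedSectionVars false
set_option linter.unusedSimpArgs false
set_option linter.unusedVariables false

namespace Cfsg.Agent.Lib.H1Orth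

open Matrix QuadraticMap
open Cfsg.Agent.Lib.Classical.Orth.Basic
open Cfsg.Agent.Lib.Classical.Orth.CartanDieudonne
open scoped commutatorElement

theorem allB_spec {m : ℕ} {p : ℕ → Bool} (h : allB m p = true) {c : ℕ} (hc : c < m) : p c = true := by
  induction m with
  | zero => omega
  | succ k ih =>
    simp only [allB, Bool.and_eq_true] at h
    rcases Nat.lt_succ_iff_lt_or_eq.1 hc with h1 | h1
    · exact ih h.2 h1
    · subst h1; exact h.1

theorem anyB_spec {m : ℕ} {p : ℕ → Bool} (h : anyB m p = true) : ∃ c, c < m ∧ p c = true := by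
  induction m with
  | zero => simp [anyB] at h
  | succ k ih =>
    simp only [anyB, Bool.or_eq_true] at h
    rcases h with h | h
    · exact ⟨k, by omega, h⟩
    · obtain ⟨c, hc, hp⟩ := ih h
      exact ⟨c, by omega, hp⟩

theorem forceNat_eq {α : Type} (n : ℕ) (k : ℕ → α) : forceNat n k = k n := by
  cases n <;> rfl

theorem tb_eq (m q : ℕ) : tb m q = m.testBit q := by
  have h : Nat.land 1 (Nat.shiftRight m q) = (m >>> q) % 2 := Nat.one_and_eq_mod_two _
  unfold tb
  rw [h]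
  unfold Nat.testBit
  rw [Nat.one_and_eq_mod_two]
  rcases Nat.mod_two_eq_zero_or_one (m >>> q) with h1 | h1 <;> rw [h1] <;> rfl

/-! ### BFS soundness -/

section BFS

variable (P : ℕ → Prop)

theorem tb_lor_shift {kn q c : ℕ} (h : tb (Nat.lor kn (Nat.shiftLeft 1 q)) c = true) :
    tb kn c = true ∨ c = q := by
  rw [tb_eq] at h ⊢
  have h1 : Nat.lor kn (Nat.shiftLeft 1 q) = kn ||| 2 ^ q := by
    show kn ||| (1 <<< q) = _
    rw [Nat.one_shiftLeft]
  rw [h1, Nat.testBit_or, Bool.or_eq_true, Nat.testBit_two_pow] at h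
  rcases h with h | h
  · exact Or.inl h
  · right
    simpa [eq_comm] using h

theorem bfsIns_sound {q kn : ℕ} {acc : List ℕ} (h1 : ∀ c, tb kn c = true → P c)
    (h2 : ∀ c ∈ acc, P c) (hq : P q) :
    (∀ c, tb (bfsIns q kn acc).1 c = true → P c) ∧ ∀ c ∈ (bfsIns q kn acc).2, P c := by
  unfold bfsIns
  cases h : tb kn q with
  | true => exact ⟨h1, h2⟩
  | false =>
    simp only [cond_false, forceNat_eq]
    refine ⟨fun c hc => ?_, fun c hc => ?_⟩
    · rcases tb_lor_shift hc with h3 | h3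
      · exact h1 c h3
      · exact h3 ▸ hq
    · rcases List.mem_cons.1 hc with h3 | h3
      · exact h3 ▸ hq
      · exact h2 c h3

theorem bfsOne_sound (gs : List (ℕ → ℕ)) (hg : ∀ g ∈ gs, ∀ c, P c → P (g c)) {p : ℕ} (hp : P p)
    (st : ℕ × List ℕ) (h1 : ∀ c, tb st.1 c = true → P c) (h2 : ∀ c ∈ st.2, P c) :
    (∀ c, tb (bfsOne gs p st).1 c = true → P c) ∧ ∀ c ∈ (bfsOne gs p st).2, P c := by
  induction gs generalizing st with
  | nil => exact ⟨h1, h2⟩
  | cons g gs ih =>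
    obtain ⟨kn, acc⟩ := st
    simp only [bfsOne, forceNat_eq]
    have h3 := bfsIns_sound P h1 h2 (hg g (List.mem_cons_self) p hp)
    exact ih (fun g' hg' => hg g' (List.mem_cons_of_mem _ hg')) _ h3.1 h3.2

theorem bfsSweep_sound (gs : List (ℕ → ℕ)) (hg : ∀ g ∈ gs, ∀ c, P c → P (g c)) (ps : List ℕ)
    (hps : ∀ c ∈ ps, P c) (st : ℕ × List ℕ) (h1 : ∀ c, tb st.1 c = true → P c)
    (h2 : ∀ c ∈ st.2, P c) :
    (∀ c, tb (bfsSweep gs ps st).1 c = true → P c) ∧ ∀ c ∈ (bfsSweep gs ps st).2, P c := by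
  induction ps generalizing st with
  | nil => exact ⟨h1, h2⟩
  | cons p ps ih =>
    obtain ⟨kn, acc⟩ := st
    simp only [bfsSweep]
    have h3 := bfsOne_sound P gs hg (hps p List.mem_cons_self) (kn, acc) h1 h2
    exact ih (fun c hc => hps c (List.mem_cons_of_mem _ hc)) _ h3.1 h3.2

theorem bfs_sound (gs : List (ℕ → ℕ)) (hg : ∀ g ∈ gs, ∀ c, P c → P (g c)) (m : ℕ) (fr : List ℕ)
    (hfr : ∀ c ∈ fr, P c) (kn : ℕ) (h1 : ∀ c, tb kn c = true → P c) :
    ∀ c, tb (bfs gs m fr kn) c = true → P c := by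
  induction m generalizing fr kn with
  | zero => exact h1
  | succ m ih =>
    have h3 := bfsSweep_sound P gs hg fr hfr (kn, []) h1 (by simp)
    simp only [bfs]
    cases h4 : bfsSweep gs fr (kn, []) with
    | mk kn' fr' =>
      rw [h4] at h3
      exact ih fr' h3.2 kn' h3.1

end BFS

/-! ### Decoding -/

section Dec

variable {ι : Type} [Fintype ι] [DecidableEq ι] {n : ℕ} (e : ι ≃ Fin n)

/-- The vector with code `c`. -/
def dec (c : ℕ) : ι → ZMod 2 := fun j => if c.testBit (e j) then 1 else 0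

theorem dec_xor (a b : ℕ) : dec e (Nat.xor a b) = dec e a + dec e b := by
  funext j
  show (if (a ^^^ b).testBit (e j) then (1 : ZMod 2) else 0) = _
  simp only [dec, Pi.add_apply, Nat.testBit_xor]
  cases a.testBit (e j) <;> cases b.testBit (e j) <;> decide

theorem dec_zero : dec e 0 = 0 := by
  funext j
  simp [dec]

theorem dec_mod (c : ℕ) : dec e (c % 2 ^ n) = dec e c := by
  funext j
  simp only [dec, Nat.testBit_mod_two_pow, (e j).isLt, decide_true, Bool.true_and]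

theorem dec_inj {a b : ℕ} (h : dec e a = dec e b) : a % 2 ^ n = b % 2 ^ n := by
  apply Nat.eq_of_testBit_eq
  intro i
  simp only [Nat.testBit_mod_two_pow]
  by_cases hi : i < n
  · simp only [hi, decide_true, Bool.true_and]
    have h1 := congrFun h (e.symm ⟨i, hi⟩)
    simp only [dec, Equiv.apply_symm_apply] at h1
    cases h2 : a.testBit i <;> cases h3 : b.testBit i <;> simp_all
  · simp [hi]

theorem dec_eq_zero {c : ℕ} (h : dec e c = 0) : c % 2 ^ n = 0 := by
  have h1 := dec_inj e (a := c) (b := 0) (by rw [h, dec_zero])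
  simpa using h1

theorem dec_surj (v : ι → ZMod 2) : ∃ c, c < 2 ^ n ∧ dec e c = v := by
  have hinj : Function.Injective (fun c : Fin (2 ^ n) => dec e c.1) := by
    intro a b hab
    have h1 := dec_inj e hab
    rw [Nat.mod_eq_of_lt a.2, Nat.mod_eq_of_lt b.2] at h1
    exact Fin.ext h1
  have hcard : Fintype.card (Fin (2 ^ n)) = Fintype.card (ι → ZMod 2) := by
    simp [ZMod.card, Fintype.card_congr e]
  have hbij := (Fintype.bijective_iff_injective_and_card _).2 ⟨hinj, hcard⟩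
  obtain ⟨c, hc⟩ := hbij.2 v
  exact ⟨c.1, c.2, hc⟩

end Dec

/-! ### Reflections over `ZMod 2` -/

section Refl

variable {ι : Type} [Fintype ι] [DecidableEq ι] (Q : QuadraticForm (ZMod 2) (ι → ZMod 2))

/-- The reflection in `v` when `v` is nonsingular, and `1` otherwise. -/
noncomputable def rr (v : ι → ZMod 2) : ↥(Cfsg.isometryGroup (ZMod 2) (⇑Q)) :=
  if h : Q v ≠ 0 then reflectionIso Q v h else 1

theorem ne_zero_iff_eq_one (x : ZMod 2) : x ≠ 0 ↔ x = 1 := by
  revert x; decide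

theorem rr_act_of_one {v : ι → ZMod 2} (hv : Q v = 1) (x : ι → ZMod 2) :
    act (rr Q v) x = x + polar (⇑Q) v x • v := by
  have h : Q v ≠ 0 := by rw [hv]; exact one_ne_zero
  simp only [rr, dif_pos h]
  rw [reflectionIso_act, hv, inv_one, one_mul]
  funext j
  simp only [Pi.sub_apply, Pi.add_apply]
  exact CharTwo.sub_eq_add _ _

theorem rr_of_zero {v : ι → ZMod 2} (hv : Q v = 0) : rr Q v = 1 := by
  simp [rr, hv]

theorem rr_mul_self (v : ι → ZMod 2) : rr Q v * rr Q v = 1 := by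
  by_cases h : Q v ≠ 0
  · simp only [rr, dif_pos h]
    exact reflectionIso_mul_self Q v h
  · simp only [rr, dif_neg h, mul_one]

theorem rr_inv (v : ι → ZMod 2) : (rr Q v)⁻¹ = rr Q v :=
  inv_eq_of_mul_eq_one_left (rr_mul_self Q v)

theorem conj_rr (g : ↥(Cfsg.isometryGroup (ZMod 2) (⇑Q))) (v : ι → ZMod 2) :
    g * rr Q v * g⁻¹ = rr Q (act g v) := by
  by_cases h : Q v ≠ 0
  · have h2 : Q (act g v) ≠ 0 := by rwa [Q_act]
    simp only [rr, dif_pos h, dif_pos h2]
    exact conj_reflectionIso g v h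
  · have h2 : ¬ Q (act g v) ≠ 0 := by rwa [Q_act]
    simp only [rr, dif_neg h, dif_neg h2, mul_one, mul_inv_cancel]

theorem polar_self_zero (a : ι → ZMod 2) : polar (⇑Q) a a = 0 := by
  rw [polar_self_eq]
  have : (2 : ZMod 2) = 0 := rfl
  rw [this, zero_mul]

/-- The rotation `r_a r_b` attached to a hyperbolic pair of nonsingular vectors. -/
noncomputable def SS (a b : ι → ZMod 2) : ↥(Cfsg.isometryGroup (ZMod 2) (⇑Q)) :=
  if Q a = 1 ∧ Q b = 1 ∧ polar (⇑Q) a b = 1 then rr Q a * rr Q b else 1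

theorem S_cube {a b : ι → ZMod 2} (ha : Q a = 1) (hb : Q b = 1) (hab : polar (⇑Q) a b = 1) :
    (rr Q a * rr Q b) * (rr Q a * rr Q b) * (rr Q a * rr Q b) = 1 := by
  have hba : polar (⇑Q) b a = 1 := by rw [polar_comm]; exact hab
  have haa := polar_self_zero Q a
  have hbb := polar_self_zero Q b
  have key : ∀ x, act (rr Q a * rr Q b) x
      = x + polar (⇑Q) b x • b + (polar (⇑Q) a x + polar (⇑Q) b x) • a := by
    intro x
    rw [act_mul, rr_act_of_one Q ha, rr_act_of_one Q hb, polar_add_right, polar_smul_right', hab]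
    funext j
    simp only [Pi.add_apply, Pi.smul_apply, smul_eq_mul]
    generalize polar (⇑Q) a x = α
    generalize polar (⇑Q) b x = β
    generalize a j = aj
    generalize b j = bj
    generalize x j = xj
    revert α β aj bj xj
    decide
  have hα : ∀ x, polar (⇑Q) a (act (rr Q a * rr Q b) x) = polar (⇑Q) a x + polar (⇑Q) b x := by
    intro x
    rw [key, polar_add_right, polar_add_right, polar_smul_right', polar_smul_right', hab, haa]
    generalize polar (⇑Q) a x = α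
    generalize polar (⇑Q) b x = β
    revert α β
    decide
  have hβ : ∀ x, polar (⇑Q) b (act (rr Q a * rr Q b) x) = polar (⇑Q) a x := by
    intro x
    rw [key, polar_add_right, polar_add_right, polar_smul_right', polar_smul_right', hba, hbb]
    generalize polar (⇑Q) a x = α
    generalize polar (⇑Q) b x = β
    revert α β
    decide
  apply ext_act
  intro x
  rw [act_mul, act_mul, act_one, key, hα, hβ, key, hα, hβ, key]
  funext j
  simp only [Pi.add_apply, Pi.smul_apply, smul_eq_mul]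
  generalize polar (⇑Q) a x = α
  generalize polar (⇑Q) b x = β
  generalize a j = aj
  generalize b j = bj
  generalize x j = xj
  revert α β aj bj xj
  decide

theorem SS_mem (a b : ι → ZMod 2) : SS Q a b ∈ Cfsg.Omega (ZMod 2) (⇑Q) := by
  unfold SS
  split_ifs with h
  · obtain ⟨ha, hb, hab⟩ := h
    have hs := S_cube Q ha hb hab
    set s := rr Q a * rr Q b with hsdef
    have hc : s * s = ⁅rr Q a, rr Q b⁆ := by
      rw [commutatorElement_def, rr_inv, rr_inv, hsdef]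
      simp only [mul_assoc]
    have h2 : s = (s * s) * (s * s) := by
      calc s = s * (s * s * s) := by rw [hs, mul_one]
        _ = (s * s) * (s * s) := by simp only [mul_assoc]
    rw [h2, hc]
    have h3 : ⁅rr Q a, rr Q b⁆ ∈ Cfsg.Omega (ZMod 2) (⇑Q) :=
      Subgroup.commutator_mem_commutator (Subgroup.mem_top _) (Subgroup.mem_top _)
    exact mul_mem h3 h3
  · exact one_mem _

theorem conj_SS (g : ↥(Cfsg.isometryGroup (ZMod 2) (⇑Q))) (a b : ι → ZMod 2) :
    g * SS Q a b * g⁻¹ = SS Q (act g a) (act g b) := by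
  unfold SS
  simp only [Q_act, polar_act]
  split_ifs with h
  · rw [← conj_rr, ← conj_rr]
    group
  · simp

end Refl

/-! ### Codes and vectors -/

section Bridge

variable {ι : Type} [Fintype ι] [DecidableEq ι] {n : ℕ}
  (Q : QuadraticForm (ZMod 2) (ι → ZMod 2)) (e : ι ≃ Fin n) (QT : ℕ)
  (hQT : ∀ c, c < 2 ^ n → Q (dec e c) = cond (tb QT c) 1 0)

include hQT

theorem Q_dec (c : ℕ) : Q (dec e c) = cond (Qb (2 ^ n) QT c) 1 0 := by
  have h := hQT (c % 2 ^ n) (Nat.mod_lt _ (by positivity))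
  rw [dec_mod] at h
  exact h

theorem polar_dec (a x : ℕ) :
    polar (⇑Q) (dec e a) (dec e x) = cond (Bb (2 ^ n) QT a x) 1 0 := by
  unfold polar
  rw [← dec_xor, Q_dec Q e QT hQT, Q_dec Q e QT hQT, Q_dec Q e QT hQT]
  unfold Bb
  cases Qb (2 ^ n) QT (Nat.xor a x) <;> cases Qb (2 ^ n) QT a <;> cases Qb (2 ^ n) QT x <;> decide

theorem act_rr_dec (a x : ℕ) :
    act (rr Q (dec e a)) (dec e x) = dec e (rc (2 ^ n) QT a x) := by
  have h1 := Q_dec Q e QT hQT a
  unfold rc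
  cases h : Qb (2 ^ n) QT a with
  | false =>
    rw [h] at h1
    rw [rr_of_zero Q h1, act_one]
    rfl
  | true =>
    rw [h] at h1
    rw [rr_act_of_one Q h1, polar_dec Q e QT hQT]
    cases h2 : Bb (2 ^ n) QT a x with
    | false => simp
    | true =>
      simp only [cond_true, Bool.and_self, one_smul]
      exact (dec_xor e x a).symm

theorem act_SS_dec (a b x : ℕ) :
    act (SS Q (dec e a) (dec e b)) (dec e x) = dec e (sc (2 ^ n) QT a b x) := by
  unfold SS sc
  rw [Q_dec Q e QT hQT, Q_dec Q e QT hQT, polar_dec Q e QT hQT]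
  cases h1 : Qb (2 ^ n) QT a <;> cases h2 : Qb (2 ^ n) QT b <;> cases h3 : Bb (2 ^ n) QT a b <;>
    simp [act_one, act_mul, act_rr_dec Q e QT hQT]

omit hQT

/-- The rotation as an element of `Ω`. -/
noncomputable def SO (a b : ι → ZMod 2) : ↥(Cfsg.Omega (ZMod 2) (⇑Q)) := ⟨SS Q a b, SS_mem Q a b⟩

/-- The product of the rotations of a word. -/
noncomputable def TT : Word → ↥(Cfsg.Omega (ZMod 2) (⇑Q))
  | [] => 1
  | p :: w => SO Q (dec e p.1) (dec e p.2) * TT w

theorem TT_append (w w' : Word) : TT Q e (w ++ w') = TT Q e w * TT Q e w' := by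
  induction w with
  | nil => simp [TT]
  | cons p w ih => simp [TT, ih, mul_assoc]

include hQT

theorem act_TT (w : Word) (x : ℕ) :
    act (TT Q e w : ↥(Cfsg.isometryGroup (ZMod 2) (⇑Q))) (dec e x) = dec e (Tc (2 ^ n) QT w x) := by
  induction w with
  | nil => exact act_one _
  | cons p w ih =>
    show act ((SS Q (dec e p.1) (dec e p.2)) * (TT Q e w : ↥(Cfsg.isometryGroup (ZMod 2) (⇑Q)))) _ = _
    rw [act_mul, ih, act_SS_dec Q e QT hQT]
    rfl

end Bridge

/-! ### Crossed homomorphisms -/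

section Crossed

variable {ι : Type} [Fintype ι] [DecidableEq ι] {n : ℕ}
  (Q : QuadraticForm (ZMod 2) (ι → ZMod 2)) (e : ι ≃ Fin n) (QT : ℕ)
  (hQT : ∀ c, c < 2 ^ n → Q (dec e c) = cond (tb QT c) 1 0)
  (f : ↥(Cfsg.Omega (ZMod 2) (⇑Q)) → ι → ZMod 2)
  (hf : ∀ g h, f (g * h) = f g + act (g : ↥(Cfsg.isometryGroup (ZMod 2) (⇑Q))) (f h))

include hf

theorem f_one : f 1 = 0 := by
  have h := hf 1 1
  rw [mul_one] at h
  have h2 : act ((1 : ↥(Cfsg.Omega (ZMod 2) (⇑Q))) : ↥(Cfsg.isometryGroup (ZMod 2) (⇑Q))) (f 1) = f 1 :=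
    act_one _
  rw [h2] at h
  exact left_eq_add.1 h

theorem f_mul {g h : ↥(Cfsg.Omega (ZMod 2) (⇑Q))} (hg : f g = 0) (hh : f h = 0) : f (g * h) = 0 := by
  rw [hf, hg, hh, act_zero, add_zero]

theorem f_inv {g : ↥(Cfsg.Omega (ZMod 2) (⇑Q))} (hg : f g = 0) : f g⁻¹ = 0 := by
  have h := hf g⁻¹ g
  rw [inv_mul_cancel, f_one Q f hf, hg, act_zero, add_zero] at h
  exact h.symm

/-- The stabiliser subgroup. -/
def Kf : Subgroup ↥(Cfsg.Omega (ZMod 2) (⇑Q)) where
  carrier := {g | f g = 0}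
  mul_mem' := f_mul Q f hf
  one_mem' := f_one Q f hf
  inv_mem' := f_inv Q f hf

omit hf

/-- The product `(x y₁) (x y₂) ⋯` in `Ω`. -/
noncomputable def relProd (x : Word) : List Word → ↥(Cfsg.Omega (ZMod 2) (⇑Q))
  | [] => 1
  | y :: ys => TT Q e x * TT Q e y * relProd x ys

include hQT

theorem act_relProd (x : Word) (ys : List Word) (c : ℕ) :
    act (relProd Q e x ys : ↥(Cfsg.isometryGroup (ZMod 2) (⇑Q))) (dec e c)
      = dec e (relAct (2 ^ n) QT x ys c) := by
  induction ys with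
  | nil => exact act_one _
  | cons y ys ih =>
    show act ((TT Q e x : ↥(Cfsg.isometryGroup (ZMod 2) (⇑Q))) * (TT Q e y : ↥(Cfsg.isometryGroup (ZMod 2) (⇑Q)))
      * (relProd Q e x ys : ↥(Cfsg.isometryGroup (ZMod 2) (⇑Q)))) _ = _
    rw [act_mul, act_mul, ih, act_TT Q e QT hQT, act_TT Q e QT hQT]
    rfl

theorem relProd_eq_one {x : Word} {ys : List Word} (h : chkRel (2 ^ n) QT x ys = true) :
    relProd Q e x ys = 1 := by
  apply Subtype.ext
  apply ext_act
  intro v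
  obtain ⟨c, hc, rfl⟩ := dec_surj e v
  rw [act_relProd Q e QT hQT]
  have h1 := Nat.eq_of_beq_eq_true (allB_spec h hc)
  rw [h1]
  exact (act_one _).symm

include hf

theorem f_relProd {x : Word} {ys : List Word} {w : ℕ} (hw : dec e w = f (TT Q e x))
    (hy : ∀ y ∈ ys, f (TT Q e y) = 0) :
    f (relProd Q e x ys) = dec e (evalC (2 ^ n) QT x ys w) := by
  induction ys with
  | nil =>
    show f 1 = dec e 0
    rw [dec_zero]
    exact f_one Q f hf
  | cons y ys ih =>
    have h1 := ih (fun y' hy' => hy y' (List.mem_cons_of_mem _ hy'))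
    have h2 := hy y List.mem_cons_self
    show f (TT Q e x * TT Q e y * relProd Q e x ys) = dec e (Nat.xor w _)
    rw [hf, hf, h2, act_zero, add_zero, h1, ← hw, dec_xor]
    congr 1
    show act ((TT Q e x : ↥(Cfsg.isometryGroup (ZMod 2) (⇑Q))) * (TT Q e y : ↥(Cfsg.isometryGroup (ZMod 2) (⇑Q)))) _ = _
    rw [act_mul, act_TT Q e QT hQT, act_TT Q e QT hQT]

omit hQT in
theorem expand_mem (known : List Word) (hk : ∀ w ∈ known, TT Q e w ∈ Kf Q f hf) (spec : List ℕ) :
    TT Q e (expand known spec) ∈ Kf Q f hf := by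
  induction spec with
  | nil => exact one_mem _
  | cons i spec ih =>
    have h1 : expand known (i :: spec) = known.getD i [] ++ expand known spec := rfl
    rw [h1, TT_append]
    refine mul_mem ?_ ih
    rw [List.getD_eq_getElem?_getD]
    cases h2 : known[i]? with
    | none => exact one_mem _
    | some w => exact hk w (List.mem_of_getElem? h2)

theorem step_sound {known : List Word} {x : Word} {rels : List (List (List ℕ))}
    (hk : ∀ w ∈ known, TT Q e w ∈ Kf Q f hf) (hc : chkStep (2 ^ n) QT known x rels = true) :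
    TT Q e x ∈ Kf Q f hf := by
  unfold chkStep at hc
  rw [Bool.and_eq_true] at hc
  obtain ⟨h1, h2⟩ := hc
  rw [List.all_eq_true] at h1
  show f (TT Q e x) = 0
  obtain ⟨w, hw, hwv⟩ := dec_surj e (f (TT Q e x))
  have h3 := allB_spec h2 hw
  rw [Bool.or_eq_true] at h3
  rcases h3 with h3 | h3
  · have h4 := Nat.eq_of_beq_eq_true h3
    rw [← hwv, h4, dec_zero]
  · rw [List.any_eq_true] at h3
    obtain ⟨rel, hrel, h4⟩ := h3
    exfalso
    have h5 : ∀ y ∈ rel, f (TT Q e y) = 0 := by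
      intro y hy
      obtain ⟨rel', -, rfl⟩ := List.mem_map.1 hrel
      obtain ⟨spec, -, rfl⟩ := List.mem_map.1 hy
      exact expand_mem Q e f hf known hk spec
    have h6 := f_relProd Q e QT hQT f hf hwv h5
    rw [relProd_eq_one Q e QT hQT (h1 rel hrel), f_one Q f hf] at h6
    have h7 := dec_eq_zero e h6.symm
    have h8 : (Nat.mod (evalC (2 ^ n) QT x rel w) (2 ^ n)).beq 0 = true := by
      show Nat.beq (evalC (2 ^ n) QT x rel w % 2 ^ n) 0 = true
      rw [h7]
      rfl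
    rw [h8] at h4
    exact absurd h4 (by decide)

omit hQT hf in
theorem lookup_mod (tab x : ℕ) : lookup n (2 ^ n) tab (x % 2 ^ n) = lookup n (2 ^ n) tab x := by
  show Nat.mod (Nat.shiftRight tab (Nat.mul n (x % 2 ^ n % 2 ^ n))) (2 ^ n) = Nat.mod (Nat.shiftRight tab (Nat.mul n (x % 2 ^ n))) (2 ^ n)
  rw [Nat.mod_mod]

omit hf in
theorem dec_lookup {w : Word} {tab : ℕ} (h : chkTab n (2 ^ n) QT w tab = true) (x : ℕ) :
    dec e (lookup n (2 ^ n) tab x)
      = act (TT Q e w : ↥(Cfsg.isometryGroup (ZMod 2) (⇑Q))) (dec e x) := by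
  have h1 := Nat.eq_of_beq_eq_true (allB_spec h (Nat.mod_lt x (by positivity : 2 ^ n > 0)))
  rw [← lookup_mod, h1, ← dec_mod e x, act_TT Q e QT hQT]
  exact dec_mod e _

omit e hQT f hf in
theorem pc_div (a b M : ℕ) (hM : 0 < M) : Nat.div (pc M a b) M = a % M := by
  show (a % M * M + b % M) / M = a % M
  rw [mul_comm, Nat.mul_add_div hM, Nat.div_eq_of_lt (Nat.mod_lt _ hM), add_zero]

omit e hQT f hf in
theorem pc_mod (a b M : ℕ) (hM : 0 < M) : Nat.mod (pc M a b) M = b % M := by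
  show (a % M * M + b % M) % M = b % M
  rw [mul_comm, Nat.mul_add_mod, Nat.mod_mod]

/-- The BFS predicate. -/
def PP (c : ℕ) : Prop :=
  f (SO Q (dec e (Nat.div c (2 ^ n))) (dec e (Nat.mod c (2 ^ n)))) = 0

omit hQT hf in
theorem PP_pc {a b : ℕ} : PP Q e f (pc (2 ^ n) a b) ↔ f (SO Q (dec e a) (dec e b)) = 0 := by
  unfold PP
  rw [pc_div _ _ _ (by positivity), pc_mod _ _ _ (by positivity), dec_mod, dec_mod]

theorem PP_step {w : Word} (hw : TT Q e w ∈ Kf Q f hf) {tab : ℕ}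
    (h : chkTab n (2 ^ n) QT w tab = true) {c : ℕ} (hc : PP Q e f c) :
    PP Q e f (gstepT n (2 ^ n) tab c) := by
  show PP Q e f (pc (2 ^ n) _ _)
  rw [PP_pc, dec_lookup Q e QT hQT h, dec_lookup Q e QT hQT h]
  have h1 : SO Q (act (TT Q e w : ↥(Cfsg.isometryGroup (ZMod 2) (⇑Q))) (dec e (Nat.div c (2 ^ n))))
      (act (TT Q e w : ↥(Cfsg.isometryGroup (ZMod 2) (⇑Q))) (dec e (Nat.mod c (2 ^ n))))
      = TT Q e w * SO Q (dec e (Nat.div c (2 ^ n))) (dec e (Nat.mod c (2 ^ n))) * (TT Q e w)⁻¹ := by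
    apply Subtype.ext
    exact (conj_SS Q _ _ _).symm
  rw [h1]
  exact mul_mem (mul_mem hw hc) (inv_mem hw)

omit hQT hf in
theorem mkTabs_eq (known : List Word) :
    mkTabs n (2 ^ n) QT known = known.map (fun w => mkTab n (2 ^ n) QT w (2 ^ n)) := by
  induction known with
  | nil => rfl
  | cons w ws ih => simp only [mkTabs, forceNat_eq, List.map_cons, ih]

theorem final_sound {known : List Word} {a₀ b₀ fuel : ℕ}
    (hk : ∀ w ∈ known, TT Q e w ∈ Kf Q f hf) (hc : chkFinal n (2 ^ n) QT known a₀ b₀ fuel = true) :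
    ∀ a b, Qb (2 ^ n) QT a = true → Qb (2 ^ n) QT b = true → Bb (2 ^ n) QT a b = true →
      f (SO Q (dec e a) (dec e b)) = 0 := by
  unfold chkFinal at hc
  rw [Bool.and_eq_true, Bool.and_eq_true, forceNat_eq] at hc
  obtain ⟨⟨h1, h2⟩, h3⟩ := hc
  rw [List.any_eq_true] at h1
  obtain ⟨w₀, hw₀, hbase⟩ := h1
  have hbase' : w₀ = [(a₀, b₀)] := by simpa using hbase
  subst hbase'
  rw [List.all_eq_true] at h2
  have hP0 : PP Q e f (pc (2 ^ n) a₀ b₀) := by
    rw [PP_pc]
    have := hk _ hw₀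
    have h4 : TT Q e [(a₀, b₀)] = SO Q (dec e a₀) (dec e b₀) := by simp [TT]
    rw [h4] at this
    exact this
  have hgens : ∀ g ∈ (mkTabs n (2 ^ n) QT known).map (gstepT n (2 ^ n)), ∀ c,
      PP Q e f c → PP Q e f (g c) := by
    intro g hg c hc
    rw [mkTabs_eq, List.map_map] at hg
    obtain ⟨w, hw, rfl⟩ := List.mem_map.1 hg
    exact PP_step Q e QT hQT f hf (hk w hw) (h2 w hw) hc
  have hS := bfs_sound (PP Q e f) _ hgens fuel [pc (2 ^ n) a₀ b₀]
    (by
      intro c hc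
      rw [List.mem_singleton] at hc
      exact hc ▸ hP0)
    (Nat.shiftLeft 1 (pc (2 ^ n) a₀ b₀))
    (by
      intro c hc
      have h5 : Nat.shiftLeft 1 (pc (2 ^ n) a₀ b₀) = Nat.lor 0 (Nat.shiftLeft 1 (pc (2 ^ n) a₀ b₀)) := by
        show _ = 0 ||| _
        rw [Nat.zero_or]
      rw [h5] at hc
      rcases tb_lor_shift hc with h6 | h6
      · rw [tb_eq] at h6
        simp at h6
      · exact h6 ▸ hP0)
  intro a b ha hb hab
  have h7 : dec e a = dec e (a % 2 ^ n) := (dec_mod e a).symm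
  have h8 : dec e b = dec e (b % 2 ^ n) := (dec_mod e b).symm
  rw [h7, h8]
  have hM : 0 < 2 ^ n := by positivity
  have hQa : Qb (2 ^ n) QT (a % 2 ^ n) = Qb (2 ^ n) QT a := by
    show tb QT (a % 2 ^ n % 2 ^ n) = tb QT (a % 2 ^ n)
    rw [Nat.mod_mod]
  have hQb : Qb (2 ^ n) QT (b % 2 ^ n) = Qb (2 ^ n) QT b := by
    show tb QT (b % 2 ^ n % 2 ^ n) = tb QT (b % 2 ^ n)
    rw [Nat.mod_mod]
  have hBab : Bb (2 ^ n) QT (a % 2 ^ n) (b % 2 ^ n) = Bb (2 ^ n) QT a b := by
    unfold Bb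
    rw [hQa, hQb]
    congr 2
    apply congrArg (tb QT)
    show (a % 2 ^ n ^^^ b % 2 ^ n) % 2 ^ n = (a ^^^ b) % 2 ^ n
    rw [Nat.xor_mod_two_pow, Nat.mod_mod, Nat.mod_mod, ← Nat.xor_mod_two_pow]
  have h9 := allB_spec h3 (Nat.mod_lt a hM)
  rw [hQa, ha, Bool.not_true, Bool.false_or] at h9
  have h10 := allB_spec h9 (Nat.mod_lt b hM)
  rw [hQb, hb, hBab, hab, Bool.not_true, Bool.false_or, Bool.false_or] at h10
  rw [← PP_pc Q e f]
  exact hS _ h10

theorem chain_sound {a₀ b₀ fuel : ℕ} (steps : List (Word × List (List (List ℕ)))) :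
    ∀ known : List Word, (∀ w ∈ known, TT Q e w ∈ Kf Q f hf) →
    chkChain n (2 ^ n) QT a₀ b₀ fuel known steps = true →
    ∀ a b, Qb (2 ^ n) QT a = true → Qb (2 ^ n) QT b = true → Bb (2 ^ n) QT a b = true →
      f (SO Q (dec e a) (dec e b)) = 0 := by
  induction steps with
  | nil =>
    intro known hk hc
    exact final_sound Q e QT hQT f hf hk hc
  | cons st rest ih =>
    intro known hk hc
    simp only [chkChain, Bool.and_eq_true] at hc
    have h1 := step_sound Q e QT hQT f hf hk hc.1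
    refine ih (known ++ [st.1]) ?_ hc.2
    intro w hw
    rcases List.mem_append.1 hw with h2 | h2
    · exact hk w h2
    · rw [List.mem_singleton] at h2
      exact h2 ▸ h1

end Crossed

/-! ### From the rotations to `Ω` -/

section Final

variable {ι : Type} [Fintype ι] [DecidableEq ι] (Q : QuadraticForm (ZMod 2) (ι → ZMod 2))

/-- The subgroup generated by the products of two reflections. -/
def EE : Subgroup ↥(Cfsg.isometryGroup (ZMod 2) (⇑Q)) :=
  Subgroup.closure {x | ∃ u v : ι → ZMod 2, Q u = 1 ∧ Q v = 1 ∧ x = rr Q u * rr Q v}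

theorem EE_normal : (EE Q).Normal := by
  refine ⟨fun x hx g => ?_⟩
  induction hx using Subgroup.closure_induction with
  | mem x hx =>
    obtain ⟨u, v, hu, hv, rfl⟩ := hx
    apply Subgroup.subset_closure
    refine ⟨act g u, act g v, by rwa [Q_act], by rwa [Q_act], ?_⟩
    rw [← conj_rr, ← conj_rr]
    group
  | one => simp [one_mem]
  | mul x y _ _ hx hy =>
    have : g * (x * y) * g⁻¹ = (g * x * g⁻¹) * (g * y * g⁻¹) := by group
    rw [this]
    exact mul_mem hx hy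
  | inv x _ hx =>
    have : g * x⁻¹ * g⁻¹ = (g * x * g⁻¹)⁻¹ := by group
    rw [this]
    exact inv_mem hx

theorem mem_EE_or {a₀ : ι → ZMod 2} (ha₀ : Q a₀ = 1) (hgen : reflGroup Q = ⊤)
    (g : ↥(Cfsg.isometryGroup (ZMod 2) (⇑Q))) : g ∈ EE Q ∨ rr Q a₀ * g ∈ EE Q := by
  have hg : g ∈ reflGroup Q := by rw [hgen]; trivial
  unfold reflGroup at hg
  have hrefl : ∀ (x : ↥(Cfsg.isometryGroup (ZMod 2) (⇑Q)))
      (_ : x ∈ {g : ↥(Cfsg.isometryGroup (ZMod 2) (⇑Q)) | ∃ v : ι → ZMod 2, Q v ≠ 0 ∧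
        ((g : GL ι (ZMod 2)) : Matrix ι ι (ZMod 2)) = Cfsg.reflectionMatrix (⇑Q) v}),
      ∃ u : ι → ZMod 2, Q u = 1 ∧ x = rr Q u := by
    rintro x ⟨u, hu, hx⟩
    refine ⟨u, (ne_zero_iff_eq_one _).1 hu, ?_⟩
    simp only [rr, dif_pos hu]
    apply Subtype.ext
    apply Units.ext
    exact hx
  have hstep : ∀ (u : ι → ZMod 2) (_ : Q u = 1) (y : ↥(Cfsg.isometryGroup (ZMod 2) (⇑Q))),
      (y ∈ EE Q ∨ rr Q a₀ * y ∈ EE Q) → (rr Q u * y ∈ EE Q ∨ rr Q a₀ * (rr Q u * y) ∈ EE Q) := by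
    intro u hu y hy
    have h0 : rr Q a₀ * rr Q u ∈ EE Q := Subgroup.subset_closure ⟨a₀, u, ha₀, hu, rfl⟩
    have h1 : rr Q u * rr Q a₀ ∈ EE Q := Subgroup.subset_closure ⟨u, a₀, hu, ha₀, rfl⟩
    rcases hy with hy | hy
    · right
      rw [← mul_assoc]
      exact mul_mem h0 hy
    · left
      have h2 : rr Q u * y = (rr Q u * rr Q a₀) * (rr Q a₀ * y) := by
        rw [mul_assoc, ← mul_assoc (rr Q a₀), rr_mul_self, one_mul]
      rw [h2]
      exact mul_mem h1 hy
  induction hg using Subgroup.closure_induction_left with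
  | one => exact Or.inl (one_mem _)
  | mul_left x hx y _ ih =>
    obtain ⟨u, hu, rfl⟩ := hrefl x hx
    exact hstep u hu y ih
  | inv_mul_cancel x hx y _ ih =>
    obtain ⟨u, hu, rfl⟩ := hrefl x hx
    rw [rr_inv]
    exact hstep u hu y ih

theorem Omega_le_EE {a₀ : ι → ZMod 2} (ha₀ : Q a₀ = 1) (hgen : reflGroup Q = ⊤) :
    Cfsg.Omega (ZMod 2) (⇑Q) ≤ EE Q := by
  have hN := EE_normal Q
  have hA : ∀ c y : ↥(Cfsg.isometryGroup (ZMod 2) (⇑Q)), c ∈ EE Q → ⁅c, y⁆ ∈ EE Q := by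
    intro c y hc
    rw [commutatorElement_def, mul_assoc, mul_assoc, ← mul_assoc y]
    exact mul_mem hc (hN.conj_mem _ (inv_mem hc) y)
  have hB : ∀ x c : ↥(Cfsg.isometryGroup (ZMod 2) (⇑Q)), c ∈ EE Q → ⁅x, c⁆ ∈ EE Q := by
    intro x c hc
    rw [commutatorElement_def]
    exact mul_mem (hN.conj_mem _ hc x) (inv_mem hc)
  unfold Cfsg.Omega commutator
  rw [Subgroup.commutator_le]
  intro x _ y _
  rcases mem_EE_or Q ha₀ hgen x with hx | hx
  · exact hA x y hx
  rcases mem_EE_or Q ha₀ hgen y with hy | hy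
  · exact hB x y hy
  -- both in the nontrivial coset
  have h0 : x * y⁻¹ ∈ EE Q := by
    have h1 : x * y⁻¹ = (rr Q a₀)⁻¹ * ((rr Q a₀ * x) * (rr Q a₀ * y)⁻¹) * rr Q a₀ := by group
    rw [h1]
    have h2 := hN.conj_mem _ (mul_mem hx (inv_mem hy)) (rr Q a₀)⁻¹
    rwa [inv_inv] at h2
  have h3 := hA _ y h0
  have h4 : ⁅x * y⁻¹, y⁆ = ⁅x, y⁆ := by
    simp only [commutatorElement_def]
    group
  rwa [h4] at h3

theorem mem_Kf_of_rotations (f : ↥(Cfsg.Omega (ZMod 2) (⇑Q)) → ι → ZMod 2)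
    (hf : ∀ g h, f (g * h) = f g + act (g : ↥(Cfsg.isometryGroup (ZMod 2) (⇑Q))) (f h))
    {a₀ : ι → ZMod 2} (ha₀ : Q a₀ = 1) (hgen : reflGroup Q = ⊤)
    (hconn : ∀ u v : ι → ZMod 2, Q u = 1 → Q v = 1 →
      ∃ w : ι → ZMod 2, Q w = 1 ∧ polar (⇑Q) u w = 1 ∧ polar (⇑Q) w v = 1)
    (hrot : ∀ u v : ι → ZMod 2, Q u = 1 → Q v = 1 → polar (⇑Q) u v = 1 → f (SO Q u v) = 0)
    (g : ↥(Cfsg.Omega (ZMod 2) (⇑Q))) : f g = 0 := by
  have h1 : ∀ u v : ι → ZMod 2, Q u = 1 → Q v = 1 → polar (⇑Q) u v = 1 →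
      rr Q u * rr Q v ∈ (Kf Q f hf).map (Cfsg.Omega (ZMod 2) (⇑Q)).subtype := by
    intro u v hu hv huv
    refine ⟨SO Q u v, hrot u v hu hv huv, ?_⟩
    show SS Q u v = _
    unfold SS
    rw [if_pos ⟨hu, hv, huv⟩]
  have h2 : EE Q ≤ (Kf Q f hf).map (Cfsg.Omega (ZMod 2) (⇑Q)).subtype := by
    unfold EE
    rw [Subgroup.closure_le]
    rintro x ⟨u, v, hu, hv, rfl⟩
    obtain ⟨w, hw, huw, hwv⟩ := hconn u v hu hv
    have h3 : rr Q u * rr Q v = (rr Q u * rr Q w) * (rr Q w * rr Q v) := by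
      rw [mul_assoc, ← mul_assoc (rr Q w), rr_mul_self, one_mul]
    rw [h3]
    exact mul_mem (h1 u w hu hw huw) (h1 w v hw hv hwv)
  obtain ⟨k, hk, hkg⟩ := h2 (Omega_le_EE Q ha₀ hgen g.2)
  have : k = g := Subtype.ext hkg
  rw [← this]
  exact hk

end Final

section Main

variable {ι : Type} [Fintype ι] [DecidableEq ι] {n : ℕ}
  (Q : QuadraticForm (ZMod 2) (ι → ZMod 2)) (e : ι ≃ Fin n) (QT : ℕ)
  (hQT : ∀ c, c < 2 ^ n → Q (dec e c) = cond (tb QT c) 1 0)

include hQT in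
theorem h1_vanish (hgen : reflGroup Q = ⊤) {t₀ : Word} {steps : List (Word × List (List (List ℕ)))}
    {a₀ b₀ fuel : ℕ} (hchk : master n (2 ^ n) QT t₀ steps a₀ b₀ fuel = true)
    (f : ↥(Cfsg.Omega (ZMod 2) (⇑Q)) → ι → ZMod 2)
    (hf : ∀ g h, f (g * h) = f g + act (g : ↥(Cfsg.isometryGroup (ZMod 2) (⇑Q))) (f h)) :
    ∃ v : ι → ZMod 2, ∀ g : ↥(Cfsg.Omega (ZMod 2) (⇑Q)),
      f g = act (g : ↥(Cfsg.isometryGroup (ZMod 2) (⇑Q))) v - v := by
  unfold master at hchk
  simp only [Bool.and_eq_true] at hchk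
  obtain ⟨⟨⟨hfpf, ha₀⟩, hconn⟩, hchain⟩ := hchk
  -- the fixed point of `t₀`
  have hinj : Function.Injective (fun x : ι → ZMod 2 =>
      act (TT Q e t₀ : ↥(Cfsg.isometryGroup (ZMod 2) (⇑Q))) x - x) := by
    intro x y hxy
    have h1 : act (TT Q e t₀ : ↥(Cfsg.isometryGroup (ZMod 2) (⇑Q))) (x - y) = x - y := by
      rw [act_sub]
      have hxy' : act (TT Q e t₀ : ↥(Cfsg.isometryGroup (ZMod 2) (⇑Q))) x - x
          = act (TT Q e t₀ : ↥(Cfsg.isometryGroup (ZMod 2) (⇑Q))) y - y := hxy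
      rw [sub_eq_sub_iff_sub_eq_sub] at hxy'
      exact hxy'
    obtain ⟨c, hc, hcv⟩ := dec_surj e (x - y)
    rw [← hcv, act_TT Q e QT hQT] at h1
    have h2 := allB_spec hfpf hc
    rw [Bool.or_eq_true] at h2
    rcases h2 with h2 | h2
    · have h3 := Nat.eq_of_beq_eq_true h2
      rw [h3, dec_zero] at hcv
      exact (sub_eq_zero.1 hcv.symm)
    · exfalso
      have h3 := dec_inj e h1
      rw [Nat.mod_eq_of_lt hc] at h3
      have h4 : (Nat.mod (Tc (2 ^ n) QT t₀ c) (2 ^ n)).beq c = true := by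
        show Nat.beq (Tc (2 ^ n) QT t₀ c % 2 ^ n) c = true
        rw [h3]
        exact Nat.beq_refl c
      rw [h4] at h2
      exact absurd h2 (by decide)
  obtain ⟨v, hv⟩ := (Finite.injective_iff_surjective.1 hinj) (f (TT Q e t₀))
  refine ⟨v, ?_⟩
  -- the normalised crossed homomorphism
  set f' : ↥(Cfsg.Omega (ZMod 2) (⇑Q)) → ι → ZMod 2 :=
    fun g => f g - (act (g : ↥(Cfsg.isometryGroup (ZMod 2) (⇑Q))) v - v) with hf'def
  have hf' : ∀ g h, f' (g * h) = f' g + act (g : ↥(Cfsg.isometryGroup (ZMod 2) (⇑Q))) (f' h) := by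
    intro g h
    simp only [hf'def]
    rw [hf, act_sub, act_sub]
    have h1 : ((g * h : ↥(Cfsg.Omega (ZMod 2) (⇑Q))) : ↥(Cfsg.isometryGroup (ZMod 2) (⇑Q)))
      = (g : ↥(Cfsg.isometryGroup (ZMod 2) (⇑Q))) * (h : ↥(Cfsg.isometryGroup (ZMod 2) (⇑Q))) := rfl
    rw [h1, act_mul]
    abel
  have ht₀ : f' (TT Q e t₀) = 0 := by
    simp only [hf'def]
    rw [sub_eq_zero]
    exact hv.symm
  have hrot0 := chain_sound Q e QT hQT f' hf' steps [t₀]
    (by
      intro w hw
      rw [List.mem_singleton] at hw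
      subst hw
      exact ht₀) hchain
  have hbit : ∀ c, Q (dec e c) = 1 → Qb (2 ^ n) QT c = true := by
    intro c hc
    rw [Q_dec Q e QT hQT] at hc
    cases h : Qb (2 ^ n) QT c with
    | true => rfl
    | false =>
      rw [h] at hc
      exact absurd hc (by decide)
  have hbit2 : ∀ a c, polar (⇑Q) (dec e a) (dec e c) = 1 → Bb (2 ^ n) QT a c = true := by
    intro a c hc
    rw [polar_dec Q e QT hQT] at hc
    cases h : Bb (2 ^ n) QT a c with
    | true => rfl
    | false =>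
      rw [h] at hc
      exact absurd hc (by decide)
  have hQ1 : ∀ c, Qb (2 ^ n) QT c = true → Q (dec e c) = 1 := by
    intro c hc
    rw [Q_dec Q e QT hQT, hc]
    rfl
  have hB1 : ∀ a c, Bb (2 ^ n) QT a c = true → polar (⇑Q) (dec e a) (dec e c) = 1 := by
    intro a c hc
    rw [polar_dec Q e QT hQT, hc]
    rfl
  have hall := mem_Kf_of_rotations Q f' hf' (a₀ := dec e a₀) (hQ1 _ ha₀) hgen
    (by
      intro u w hu hw
      obtain ⟨a, ha, rfl⟩ := dec_surj e u
      obtain ⟨b, hb, rfl⟩ := dec_surj e w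
      have h1 := allB_spec hconn ha
      rw [hbit a hu, Bool.not_true, Bool.false_or] at h1
      have h2 := allB_spec h1 hb
      rw [hbit b hw, Bool.not_true, Bool.false_or] at h2
      obtain ⟨c, -, hcc⟩ := anyB_spec h2
      simp only [Bool.and_eq_true] at hcc
      exact ⟨dec e c, hQ1 c hcc.1.1, hB1 a c hcc.1.2, hB1 c b hcc.2⟩)
    (by
      intro u w hu hw huw
      obtain ⟨a, -, rfl⟩ := dec_surj e u
      obtain ⟨b, -, rfl⟩ := dec_surj e w
      exact hrot0 a b (hbit a hu) (hbit b hw) (hbit2 a b huw))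
  intro g
  exact sub_eq_zero.1 (hall g)

end Main

end Cfsg.Agent.Lib.H1Orth
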