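import Mathlib
import Cfsg.Agent.Lib.H1Orth.Core

/-!
A finite certificate that reflections generate the isometry group in dimension four over `ZMod 2`:
the reflections act on the ordered quadruples of vectors, and every quadruple with the Gram data
of the standard basis lies in the orbit of the standard basis.
-/

set_option autoImplicit false
set_option linter.unusedSectionVars false
set_option linter.unusedSimpArgs false
set_option linter.unusedVariables false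

namespace Cfsg.Agent.Lib.H1Orth

open Matrix QuadraticMap
open Cfsg.Agent.Lib.Classical.Orth.Basic
open Cfsg.Agent.Lib.Classical.Orth.CartanDieudonne

def nb0 (c : ℕ) : ℕ := Nat.mod c 16
def nb1 (c : ℕ) : ℕ := Nat.mod (Nat.div c 16) 16
def nb2 (c : ℕ) : ℕ := Nat.mod (Nat.div c 256) 16
def nb3 (c : ℕ) : ℕ := Nat.mod (Nat.div c 4096) 16
def mk4 (a b c d : ℕ) : ℕ :=
  Nat.add (Nat.mod a 16) (Nat.add (Nat.mul 16 (Nat.mod b 16))
    (Nat.add (Nat.mul 256 (Nat.mod c 16)) (Nat.mul 4096 (Nat.mod d 16))))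

theorem mk4_eq (a b c d : ℕ) : mk4 a b c d = a % 16 + (16 * (b % 16) + (256 * (c % 16) + 4096 * (d % 16))) := rfl
theorem nb0_eq (c : ℕ) : nb0 c = c % 16 := rfl
theorem nb1_eq (c : ℕ) : nb1 c = c / 16 % 16 := rfl
theorem nb2_eq (c : ℕ) : nb2 c = c / 256 % 16 := rfl
theorem nb3_eq (c : ℕ) : nb3 c = c / 4096 % 16 := rfl

theorem nb0_mk4 (a b c d : ℕ) : nb0 (mk4 a b c d) = a % 16 := by
  rw [nb0_eq, mk4_eq]; omega
theorem nb1_mk4 (a b c d : ℕ) : nb1 (mk4 a b c d) = b % 16 := by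
  rw [nb1_eq, mk4_eq]; omega
theorem nb2_mk4 (a b c d : ℕ) : nb2 (mk4 a b c d) = c % 16 := by
  rw [nb2_eq, mk4_eq]; omega
theorem nb3_mk4 (a b c d : ℕ) : nb3 (mk4 a b c d) = d % 16 := by
  rw [nb3_eq, mk4_eq]; omega

section
variable (M QT : ℕ)

def rstep (a c : ℕ) : ℕ :=
  mk4 (rc M QT a (nb0 c)) (rc M QT a (nb1 c)) (rc M QT a (nb2 c)) (rc M QT a (nb3 c))

def valid4 (c : ℕ) : Bool :=
  (Qb M QT (nb0 c) == Qb M QT 1) && (Qb M QT (nb1 c) == Qb M QT 2) &&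
  (Qb M QT (nb2 c) == Qb M QT 4) && (Qb M QT (nb3 c) == Qb M QT 8) &&
  (Bb M QT (nb0 c) (nb1 c) == Bb M QT 1 2) && (Bb M QT (nb0 c) (nb2 c) == Bb M QT 1 4) &&
  (Bb M QT (nb0 c) (nb3 c) == Bb M QT 1 8) && (Bb M QT (nb1 c) (nb2 c) == Bb M QT 2 4) &&
  (Bb M QT (nb1 c) (nb3 c) == Bb M QT 2 8) && (Bb M QT (nb2 c) (nb3 c) == Bb M QT 4 8)

def chkRefl4 (fuel : ℕ) : Bool :=
  forceNat (bfs ((List.range M).map (rstep M QT)) fuel [mk4 1 2 4 8]
      (Nat.shiftLeft 1 (mk4 1 2 4 8))) fun kn =>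
    allB 65536 (fun c => !valid4 M QT c || tb kn c)

end

section Sound

variable {ι : Type} [Fintype ι] [DecidableEq ι]
  (Q : QuadraticForm (ZMod 2) (ι → ZMod 2)) (e : ι ≃ Fin 4) (QT : ℕ)
  (hQT : ∀ c, c < 2 ^ 4 → Q (dec e c) = cond (tb QT c) 1 0)

theorem dec_mod16 (c : ℕ) : dec e (c % 16) = dec e c := dec_mod e c

theorem rr_mem (v : ι → ZMod 2) : rr Q v ∈ reflGroup Q := by
  by_cases h : Q v ≠ 0
  · simp only [rr, dif_pos h]
    exact reflectionIso_mem v h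
  · simp only [rr, dif_neg h]
    exact one_mem _

/-- The orbit predicate. -/
def PP4 (c : ℕ) : Prop :=
  ∃ h ∈ reflGroup Q, act h (dec e 1) = dec e (nb0 c) ∧ act h (dec e 2) = dec e (nb1 c) ∧
    act h (dec e 4) = dec e (nb2 c) ∧ act h (dec e 8) = dec e (nb3 c)

include hQT in
theorem PP4_step (a : ℕ) {c : ℕ} (hc : PP4 Q e c) : PP4 Q e (rstep (2 ^ 4) QT a c) := by
  obtain ⟨h, hh, h0, h1, h2, h3⟩ := hc
  refine ⟨rr Q (dec e a) * h, mul_mem (rr_mem Q _) hh, ?_, ?_, ?_, ?_⟩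
  · rw [act_mul, h0, act_rr_dec Q e QT hQT, rstep, nb0_mk4, dec_mod16]
  · rw [act_mul, h1, act_rr_dec Q e QT hQT, rstep, nb1_mk4, dec_mod16]
  · rw [act_mul, h2, act_rr_dec Q e QT hQT, rstep, nb2_mk4, dec_mod16]
  · rw [act_mul, h3, act_rr_dec Q e QT hQT, rstep, nb3_mk4, dec_mod16]

theorem PP4_base : PP4 Q e (mk4 1 2 4 8) := by
  refine ⟨1, one_mem _, ?_, ?_, ?_, ?_⟩
  · rw [act_one, nb0_mk4]
  · rw [act_one, nb1_mk4]
  · rw [act_one, nb2_mk4]
  · rw [act_one, nb3_mk4]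

theorem dec_two_pow (j : ι) : dec e (2 ^ (e j : ℕ)) = Pi.single j 1 := by
  funext i
  simp only [dec, Nat.testBit_two_pow, Pi.single_apply]
  by_cases h : i = j
  · subst h
    simp
  · have h2 : ¬ ((e j : ℕ) = (e i : ℕ)) := by
      intro h3
      exact h (e.injective (Fin.ext h3.symm))
    simp [h, h2]

theorem ext_basis {g h : ↥(Cfsg.isometryGroup (ZMod 2) (⇑Q))}
    (h0 : act g (dec e 1) = act h (dec e 1)) (h1 : act g (dec e 2) = act h (dec e 2))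
    (h2 : act g (dec e 4) = act h (dec e 4)) (h3 : act g (dec e 8) = act h (dec e 8)) : g = h := by
  apply Subtype.ext
  apply Units.ext
  apply Matrix.ext_of_mulVec_single
  intro j
  rw [← dec_two_pow e j]
  have h4 := (e j).isLt
  rcases hj : (e j : ℕ) with _ | _ | _ | _ | k
  · exact h0
  · exact h1
  · exact h2
  · exact h3
  · omega

theorem cond_inj {b b' : Bool} (h : cond b (1 : ZMod 2) 0 = cond b' 1 0) : b = b' := by
  cases b <;> cases b' <;> first | rfl | exact absurd h (by decide)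

include hQT in
theorem reflGroup_top_of_chk {fuel : ℕ} (hc : chkRefl4 (2 ^ 4) QT fuel = true) : reflGroup Q = ⊤ := by
  rw [eq_top_iff]
  intro g _
  unfold chkRefl4 at hc
  rw [forceNat_eq] at hc
  have hgens : ∀ g' ∈ (List.range (2 ^ 4)).map (rstep (2 ^ 4) QT), ∀ c,
      PP4 Q e c → PP4 Q e (g' c) := by
    intro g' hg' c hc'
    obtain ⟨a, -, rfl⟩ := List.mem_map.1 hg'
    exact PP4_step Q e QT hQT a hc'
  have hS := bfs_sound (PP4 Q e) _ hgens fuel [mk4 1 2 4 8]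
    (by
      intro c hc
      rw [List.mem_singleton] at hc
      exact hc ▸ PP4_base Q e)
    (Nat.shiftLeft 1 (mk4 1 2 4 8))
    (by
      intro c hc
      have h5 : Nat.shiftLeft 1 (mk4 1 2 4 8) = Nat.lor 0 (Nat.shiftLeft 1 (mk4 1 2 4 8)) := by
        show _ = 0 ||| _
        rw [Nat.zero_or]
      rw [h5] at hc
      rcases tb_lor_shift hc with h6 | h6
      · rw [tb_eq] at h6
        simp at h6
      · exact h6 ▸ PP4_base Q e)
  obtain ⟨c0, hc0, h0⟩ := dec_surj e (act g (dec e 1))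
  obtain ⟨c1, hc1, h1⟩ := dec_surj e (act g (dec e 2))
  obtain ⟨c2, hc2, h2⟩ := dec_surj e (act g (dec e 4))
  obtain ⟨c3, hc3, h3⟩ := dec_surj e (act g (dec e 8))
  have hc0' : c0 < 16 := hc0
  have hc1' : c1 < 16 := hc1
  have hc2' : c2 < 16 := hc2
  have hc3' : c3 < 16 := hc3
  have hlt : mk4 c0 c1 c2 c3 < 65536 := by
    rw [mk4_eq]
    omega
  have hn0 : nb0 (mk4 c0 c1 c2 c3) = c0 := by rw [nb0_mk4, Nat.mod_eq_of_lt hc0']
  have hn1 : nb1 (mk4 c0 c1 c2 c3) = c1 := by rw [nb1_mk4, Nat.mod_eq_of_lt hc1']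
  have hn2 : nb2 (mk4 c0 c1 c2 c3) = c2 := by rw [nb2_mk4, Nat.mod_eq_of_lt hc2']
  have hn3 : nb3 (mk4 c0 c1 c2 c3) = c3 := by rw [nb3_mk4, Nat.mod_eq_of_lt hc3']
  have hQQ : ∀ a b : ℕ, dec e a = act g (dec e b) → Qb (2 ^ 4) QT a = Qb (2 ^ 4) QT b := by
    intro a b hab
    apply cond_inj
    rw [← Q_dec Q e QT hQT, ← Q_dec Q e QT hQT, hab, Q_act]
  have hBB : ∀ a b a' b' : ℕ, dec e a = act g (dec e a') → dec e b = act g (dec e b') →
      Bb (2 ^ 4) QT a b = Bb (2 ^ 4) QT a' b' := by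
    intro a b a' b' ha hb
    apply cond_inj
    rw [← polar_dec Q e QT hQT, ← polar_dec Q e QT hQT, ha, hb, polar_act]
  have hvalid : valid4 (2 ^ 4) QT (mk4 c0 c1 c2 c3) = true := by
    unfold valid4
    rw [hn0, hn1, hn2, hn3, hQQ c0 1 h0, hQQ c1 2 h1, hQQ c2 4 h2, hQQ c3 8 h3,
      hBB c0 c1 1 2 h0 h1, hBB c0 c2 1 4 h0 h2, hBB c0 c3 1 8 h0 h3, hBB c1 c2 2 4 h1 h2,
      hBB c1 c3 2 8 h1 h3, hBB c2 c3 4 8 h2 h3]
    simp
  have h7 := allB_spec hc hlt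
  rw [hvalid, Bool.not_true, Bool.false_or] at h7
  obtain ⟨h, hh, e0, e1, e2, e3⟩ := hS _ h7
  rw [hn0, h0] at e0
  rw [hn1, h1] at e1
  rw [hn2, h2] at e2
  rw [hn3, h3] at e3
  have : h = g := ext_basis Q e e0 e1 e2 e3
  rw [← this]
  exact hh

end Sound

end Cfsg.Agent.Lib.H1Orth
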